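import Cfsg.Agent.Lib.O73.Hom
import Cfsg.Agent.Lib.O73.Data
import Cfsg.Agent.Lib.TC.D.Fi22H.Main
import Cfsg.Agent.Lib.PermComp.Core

/-! The action of the presented group of `Ω₇(3)` on 364 points, in the format of the tail certificates. -/

namespace Cfsg.Agent.Lib.O73.Act

open Cfsg.Agent.Lib.O73.Gen Cfsg.Agent.Lib.O73.Data Cfsg.Agent.Lib.O73.Hom
open Cfsg.Agent.Lib.TC.Core Cfsg.Agent.Lib.TC.D.Fi22Chain.S1_Tab

set_option maxRecDepth 100000
set_option Elab.async false
set_option maxHeartbeats 0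

theorem chk1 : ((List.range 8).all fun c => allLt 9 364 fun p =>
    Nat.blt (tA c p) 364 && Nat.beq (tA c (tA c p)) p) = true := by decide +kernel

theorem chk2 : (rels'.all fun l => allLt 9 364 fun p => Nat.beq (valW tA l p) p) = true := by
  decide +kernel

theorem h1 : ∀ c, c < 8 → ∀ p, p < 364 → tA c p < 364 ∧ tA c (tA c p) = p := by
  intro c hc p hp
  have h := List.all_eq_true.1 chk1 c (List.mem_range.2 hc)
  have h2 := allLt_spec h (by norm_num) hp
  simp only [Bool.and_eq_true, Nat.blt_eq, Nat.beq_eq] at h2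
  exact h2

theorem h2 : ∀ l ∈ rels', ∀ p, p < 364 → valW tA l p = p := by
  intro l hl p hp
  have h := List.all_eq_true.1 chk2 l hl
  have h2 := allLt_spec h (by norm_num) hp
  simpa only [Nat.beq_eq] using h2

/-- The action on 364 points. -/
noncomputable def φ : Γ →* Equiv.Perm (Fin 364) := Classical.choose (exists_hom 364 tA h1 h2)

theorem φ_spec (l : List Nat) (hl : ∀ z ∈ l, z < 8) (p : Fin 364) :
    (φ (prodA E l) p).val = valW tA l p.val :=
  Classical.choose_spec (exists_hom 364 tA h1 h2) l hl p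

theorem φ_E {c : Nat} (hc : c < 8) (p : Fin 364) : (φ (E c) p).val = tA c p.val := by
  have h := φ_spec [c] (by simpa using hc) p
  have h3 : prodA E [c] = E c := by
    simp [prodA_cons]
  rw [h3] at h
  exact h

theorem φ_ne : φ (E 0) ≠ 1 := by
  intro h1
  have h2 := φ_E (c := 0) (by norm_num) ⟨0, by norm_num⟩
  rw [h1] at h2
  simp only [Equiv.Perm.one_apply] at h2
  have h3 : tA 0 0 ≠ 0 := by decide +kernel
  exact h3 h2.symm

theorem φ_inj : Function.Injective φ := inj_of_ne φ φ_ne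

/-- The image of the presented group. -/
noncomputable def G : Subgroup (Equiv.Perm (Fin 364)) := φ.range

/-- The presented group and the image. -/
noncomputable def eG : Γ ≃* G := MonoidHom.ofInjective φ_inj

theorem card_G : Nat.card G = 4585351680 := by
  rw [← Nat.card_congr eG.toEquiv]
  exact Cfsg.Agent.Lib.TC.D.Fi22H.Main.simple_card.2

/-- The generators are represented by their codes. -/
theorem gens_rep : ∀ c ∈ cA.reverse, ∃ g ∈ G,
    Cfsg.Agent.Lib.PermComp.Core.Rep 9 511 (Equiv.refl (Fin 364)) c g := by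
  intro c hc
  have hc2 : c ∈ cA := List.mem_reverse.1 hc
  obtain ⟨i, hi, rfl⟩ := List.mem_iff_getElem.1 hc2
  have hlen : cA.length = 8 := by decide +kernel
  have hi8 : i < 8 := by omega
  refine ⟨φ (E i), MonoidHom.mem_range.2 ⟨_, rfl⟩, ?_⟩
  intro a
  show Cfsg.Agent.Lib.PermComp.Core.app 9 511 cA[i] (a : Nat) = ((φ (E i) a : Fin 364) : Nat)
  rw [φ_E hi8]
  show Nat.land (Nat.shiftRight cA[i] (Nat.mul 9 a)) 511 = lkL 9 cA i a
  have : lkL 9 cA i a = (cA[i] >>> (9 * (a : Nat))) % 2 ^ 9 := by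
    rw [lkL, lk, List.getD_eq_getElem _ _ hi]
    rfl
  rw [this]
  have h3 := Nat.and_two_pow_sub_one_eq_mod (cA[i] >>> (9 * (a : Nat))) 9
  rw [← h3]
  rfl

end Cfsg.Agent.Lib.O73.Act
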