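import Cfsg.Agent.Lib.O73.Hom
import Cfsg.Agent.Lib.O73.Data

/-! The finite checks. -/

namespace Cfsg.Agent.Lib.O73.Checks

open Cfsg.Agent.Lib.O73.Gen Cfsg.Agent.Lib.O73.Data Cfsg.Agent.Lib.O73.Hom
open Cfsg.Agent.Lib.TC.D.Fi22Chain.S1_Tab

set_option maxRecDepth 100000
set_option Elab.async false
set_option maxHeartbeats 0

/-- The letters are involutions on 364 points. -/
theorem chk1A : ((List.range 8).all fun c => allLt 9 364 fun p =>
    Nat.blt (tA c p) 364 && Nat.beq (tA c (tA c p)) p) = true := by decide +kernel

theorem chk2A : (rels'.all fun l => allLt 9 364 fun p => Nat.beq (valW tA l p) p) = true := by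
  decide +kernel

theorem chk1B : ((List.range 8).all fun c => allLt 11 1080 fun p =>
    Nat.blt (tB c p) 1080 && Nat.beq (tB c (tB c p)) p) = true := by decide +kernel

theorem chk2B : (rels'.all fun l => allLt 11 1080 fun p => Nat.beq (valW tB l p) p) = true := by
  decide +kernel

/-- The words of the polycyclic generators. -/
theorem chkS : ((List.range 9).all fun k => allLt 9 364 fun p =>
    Nat.beq (valW tA (WS.getD k []) p) (ts k p)) = true := by decide +kernel

theorem chkCube : ((List.range 9).all fun k => allLt 9 364 fun p =>
    Nat.beq (ts k (ts k (ts k p))) p) = true := by decide +kernel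

theorem chkPc : ((List.range 9).all fun k => (List.range k).all fun j => allLt 9 364 fun p =>
    Nat.beq (ts k (ts j p)) (evalE ts k (pcw k j) (ts k p))) = true := by decide +kernel

/-- The sorting check. -/
def fSort (i : Nat) : Bool := !(Nat.blt i 19682) || Nat.blt (codeL (base.map (evalE ts 9 (ell i))))
    (codeL (base.map (evalE ts 9 (ell (i + 1)))))

theorem chkSort0 : allR fSort 12 0 = true := by decide +kernel

theorem chkSort1 : allR fSort 12 4096 = true := by decide +kernel

theorem chkSort2 : allR fSort 12 8192 = true := by decide +kernel

theorem chkSort3 : allR fSort 12 12288 = true := by decide +kernel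

theorem chkSort4 : allR fSort 12 16384 = true := by decide +kernel

/-- The enumeration check. -/
def fEnum (e : Nat) : Bool := !(Nat.blt e 19683) || chkE ts 9 base cC repE nr e

theorem chkEnum0 : allR fEnum 12 0 = true := by decide +kernel

theorem chkEnum1 : allR fEnum 12 4096 = true := by decide +kernel

theorem chkEnum2 : allR fEnum 12 8192 = true := by decide +kernel

theorem chkEnum3 : allR fEnum 12 12288 = true := by decide +kernel

theorem chkEnum4 : allR fEnum 12 16384 = true := by decide +kernel

/-- The chunks cover the range. -/
theorem forall_of_chunks {f : Nat → Bool} (h0 : allR f 12 0 = true) (h1 : allR f 12 4096 = true)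
    (h2 : allR f 12 8192 = true) (h3 : allR f 12 12288 = true) (h4 : allR f 12 16384 = true)
    {i : Nat} (hi : i < 20480) : f i = true := by
  have h2p : (2 : Nat) ^ 12 = 4096 := by norm_num
  by_cases c0 : i < 4096
  · exact allR_spec f 12 0 h0 i (by omega) (by omega)
  by_cases c1 : i < 8192
  · exact allR_spec f 12 4096 h1 i (by omega) (by omega)
  by_cases c2 : i < 12288
  · exact allR_spec f 12 8192 h2 i (by omega) (by omega)
  by_cases c3 : i < 16384
  · exact allR_spec f 12 12288 h3 i (by omega) (by omega)
  · exact allR_spec f 12 16384 h4 i (by omega) (by omega)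

/-- The values of the class representatives. -/
def xt (i p : Nat) : Nat := valW tA (WX.getD i []) p

/-- The conjugation check. -/
def fRep (r : Nat) : Bool := !(Nat.blt r nr) || allLt 9 364 fun p =>
    Nat.beq (valW tA (WH.getD r []) (evalE ts 9 (repE r) p))
      ((xt (ic r))^[ia r] (valW tA (WH.getD r []) p))

theorem chkRep0 : allR fRep 3 0 = true := by decide +kernel

theorem chkRep1 : allR fRep 3 8 = true := by decide +kernel

theorem chkRep2 : allR fRep 3 16 = true := by decide +kernel

theorem chkRep3 : allR fRep 3 24 = true := by decide +kernel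

theorem chkRep4 : allR fRep 3 32 = true := by decide +kernel

theorem chkRep5 : allR fRep 3 40 = true := by decide +kernel

theorem chkRep6 : allR fRep 3 48 = true := by decide +kernel

theorem chkRep7 : allR fRep 3 56 = true := by decide +kernel

theorem chkRep8 : allR fRep 3 64 = true := by decide +kernel

theorem chkRep9 : allR fRep 3 72 = true := by decide +kernel

theorem chkRep10 : allR fRep 3 80 = true := by decide +kernel

theorem chkRep11 : allR fRep 3 88 = true := by decide +kernel

theorem chkRep12 : allR fRep 3 96 = true := by decide +kernel

theorem chkRep13 : allR fRep 3 104 = true := by decide +kernel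

theorem chkRep14 : allR fRep 3 112 = true := by decide +kernel

theorem chkRep15 : allR fRep 3 120 = true := by decide +kernel

theorem chkIa : (iaL.all fun a => Nat.beq a 1 || Nat.beq a 2) = true := by decide +kernel

theorem chkIc : (icL.all fun a => Nat.blt a 7) = true := by decide +kernel

/-- Moved points. -/
def cntM (f : Nat → Nat) : Nat → Nat
  | 0 => 0
  | k + 1 => cntM f k + (bif Nat.beq (f k) k then 0 else 1)

theorem chkXcube : ((List.range 7).all fun i => allLt 9 364 fun p =>
    Nat.beq (xt i (xt i (xt i p))) p) = true := by decide +kernel

theorem chkMA : ((List.range 7).all fun i => Nat.beq (cntM (xt i) 364) (mA.getD i 0)) = true := by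
  decide +kernel

theorem chkMB : ((List.range 7).all fun i =>
    Nat.beq (cntM (valW tB (WX.getD i [])) 1080) (mB.getD i 0)) = true := by decide +kernel

end Cfsg.Agent.Lib.O73.Checks
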