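import Cfsg.Prelude.Def_Classical
import Cfsg.Agent.Lib.Classical.FieldTransfer

/-! The group `PΩ₇(F)` depends only on the isomorphism class of the field `F`. -/

set_option autoImplicit false

namespace Cfsg.Agent.Lib.O73.FieldIso

open Cfsg Matrix

variable {ι : Type} [Fintype ι] [DecidableEq ι] {F F' : Type*} [Field F] [Field F']

/-- Transport of general linear groups. -/
def glCongr (e : F ≃+* F') : GeneralLinearGroup ι F ≃* GeneralLinearGroup ι F' :=
  Units.mapEquiv (RingEquiv.mapMatrix e).toMulEquiv

theorem glCongr_mulVec (e : F ≃+* F') (g : GeneralLinearGroup ι F) (u : ι → F) :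
    (((glCongr e g : GeneralLinearGroup ι F') : Matrix ι ι F') *ᵥ fun i => e (u i)) =
      fun i => e (((g : Matrix ι ι F) *ᵥ u) i) := by
  funext i
  simp only [Matrix.mulVec, dotProduct, map_sum, map_mul]
  rfl

theorem mem_isometry {Q : (ι → F) → F} {g : GeneralLinearGroup ι F} :
    g ∈ isometryGroup F Q ↔ ∀ u, Q ((g : Matrix ι ι F) *ᵥ u) = Q u := by
  constructor
  · intro h u
    exact h u u
  · intro h u _
    exact h u

/-- The vector with coordinates transported back. -/
theorem surj_vec (e : F ≃+* F') (u : ι → F') : u = fun i => e ((fun i => e.symm (u i)) i) := by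
  funext i
  simp

theorem map_isometry (e : F ≃+* F') {Q : (ι → F) → F} {Q' : (ι → F') → F'}
    (hQ : ∀ u, Q' (fun i => e (u i)) = e (Q u)) :
    (isometryGroup F Q).map (glCongr e : GeneralLinearGroup ι F ≃* GeneralLinearGroup ι F').toMonoidHom =
      isometryGroup F' Q' := by
  ext g'
  constructor
  · rintro ⟨g, hg, rfl⟩
    rw [mem_isometry]
    intro u'
    rw [surj_vec e u']
    have h := glCongr_mulVec e g (fun i => e.symm (u' i))
    show Q' (((glCongr e g : GeneralLinearGroup ι F') : Matrix ι ι F') *ᵥ _) = _
    rw [h, hQ, hQ, (mem_isometry.1 hg)]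
  · intro hg
    refine ⟨(glCongr e).symm g', ?_, by simp⟩
    rw [SetLike.mem_coe, mem_isometry]
    intro u
    apply e.injective
    rw [← hQ, ← hQ]
    have h := glCongr_mulVec e ((glCongr e).symm g') u
    rw [MulEquiv.apply_symm_apply] at h
    rw [← h]
    exact (mem_isometry.1 hg) _

/-- Transport of isometry groups. -/
noncomputable def isoCongr (e : F ≃+* F') {Q : (ι → F) → F} {Q' : (ι → F') → F'}
    (hQ : ∀ u, Q' (fun i => e (u i)) = e (Q u)) : isometryGroup F Q ≃* isometryGroup F' Q' :=
  ((glCongr e : GeneralLinearGroup ι F ≃* GeneralLinearGroup ι F').subgroupMap _).trans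
    (MulEquiv.subgroupCongr (map_isometry e hQ))

theorem map_commutator_eq' {A B : Type*} [Group A] [Group B] (f : A ≃* B) :
    (commutator A).map f.toMonoidHom = commutator B := by
  rw [commutator_def, commutator_def, Subgroup.map_commutator,
    Subgroup.map_top_of_surjective _ f.surjective]

/-- Transport of commutator subgroups. -/
noncomputable def commCongr {A B : Type*} [Group A] [Group B] (f : A ≃* B) :
    commutator A ≃* commutator B :=
  (f.subgroupMap _).trans (MulEquiv.subgroupCongr (map_commutator_eq' f))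

/-- Transport of `PΩ`. -/
noncomputable def pomegaCongr (e : F ≃+* F') {Q : (ι → F) → F} {Q' : (ι → F') → F'}
    (hQ : ∀ u, Q' (fun i => e (u i)) = e (Q u)) : POmega F Q ≃* POmega F' Q' :=
  Cfsg.Agent.Lib.Classical.FieldTransfer.centralQuotientCongr (commCongr (isoCongr e hQ))

/-- The form in dimension seven over the field with three elements. -/
theorem exists_equiv (F : Type*) [Field F] [Fintype F] (hF : Fintype.card F = 3) :
    Nonempty (POmega F (quadFormOdd 3 F) ≃* POmega (ZMod 3) (quadFormOdd 3 (ZMod 3))) := by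
  let e : ZMod 3 ≃+* F := ZMod.ringEquivOfPrime F Nat.prime_three hF
  refine ⟨(pomegaCongr e ?_).symm⟩
  intro u
  simp [quadFormOdd, map_add, map_pow, map_sum, map_mul]

end Cfsg.Agent.Lib.O73.FieldIso
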