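import Mathlib

/-!
# Enumerating the elements of a polycyclic `3`-subgroup of a permutation group

Generic lemmas for the classes of subgroups of order three of a group with a faithful
permutation representation.
-/

namespace Cfsg.Agent.Lib.O73.Gen

open Function

/-- Binary splitting. -/
def allR (f : Nat → Bool) : Nat → Nat → Bool
  | 0, lo => f lo
  | d + 1, lo => allR f d lo && allR f d (lo + 2 ^ d)

theorem allR_spec (f : Nat → Bool) : ∀ d lo, allR f d lo = true → ∀ i, lo ≤ i → i < lo + 2 ^ d →
    f i = true := by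
  intro d
  induction d with
  | zero =>
    intro lo h i h1 h2
    have : i = lo := by simp at h2; omega
    rw [this]; exact h
  | succ d ih =>
    intro lo h i h1 h2
    simp only [allR, Bool.and_eq_true] at h
    by_cases hi : i < lo + 2 ^ d
    · exact ih lo h.1 i h1 hi
    · refine ih _ h.2 i (by omega) ?_
      rw [pow_succ] at h2
      omega

/-- Check `f` below `n`. -/
def allLt (d n : Nat) (f : Nat → Bool) : Bool := allR (fun i => !(Nat.blt i n) || f i) d 0

theorem allLt_spec {d n : Nat} {f : Nat → Bool} (h : allLt d n f = true) (hn : n ≤ 2 ^ d) {i : Nat}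
    (hi : i < n) : f i = true := by
  have := allR_spec _ d 0 h i (Nat.zero_le _) (by omega)
  simp only [Bool.or_eq_true, Bool.not_eq_true'] at this
  rcases this with h1 | h1
  · have h2 : Nat.blt i n = true := by
      rw [Nat.blt_eq]; exact hi
    rw [h2] at h1
    exact absurd h1 (by decide)
  · exact h1

/-- A table lookup. -/
def lk (w c p : Nat) : Nat := (c >>> (w * p)) % 2 ^ w

/-- A value in a list of packed tables. -/
def lkL (w : Nat) (l : List Nat) (k p : Nat) : Nat := lk w (l.getD k 0) p

variable {Γ : Type*} [Group Γ]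

/-- The element with code `e`. -/
def elt (s : Nat → Γ) : Nat → Nat → Γ
  | 0, _ => 1
  | k + 1, e => s k ^ (e / 3 ^ k) * elt s k (e % 3 ^ k)

/-- The subgroup generated by the first `k` elements. -/
def Tk (s : Nat → Γ) (k : Nat) : Subgroup Γ := Subgroup.closure {x | ∃ j, j < k ∧ x = s j}

theorem s_mem {s : Nat → Γ} {j k : Nat} (h : j < k) : s j ∈ Tk s k :=
  Subgroup.subset_closure ⟨j, h, rfl⟩

theorem Tk_mono {s : Nat → Γ} {k l : Nat} (h : k ≤ l) : Tk s k ≤ Tk s l := by
  apply Subgroup.closure_mono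
  rintro x ⟨j, hj, rfl⟩
  exact ⟨j, by omega, rfl⟩

theorem elt_mem (s : Nat → Γ) : ∀ k e, elt s k e ∈ Tk s k
  | 0, _ => one_mem _
  | k + 1, e => mul_mem (pow_mem (s_mem (Nat.lt_succ_self k)) _)
      (Tk_mono (Nat.le_succ k) (elt_mem s k _))

/-- Every element of the generated subgroup is a normal form. -/
theorem exists_elt (s : Nat → Γ) (m : Nat) (hcube : ∀ k, k < m → s k ^ 3 = 1)
    (hrel : ∀ k, k < m → ∀ j, j < k → ∃ w, s k * s j * (s k)⁻¹ = elt s k w) :
    ∀ k, k ≤ m → ∀ x ∈ Tk s k, ∃ e, e < 3 ^ k ∧ x = elt s k e := by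
  intro k
  induction k with
  | zero =>
    intro _ x hx
    have h0 : Tk s 0 = ⊥ := by
      rw [Tk, Subgroup.closure_eq_bot_iff]
      rintro x ⟨j, hj, _⟩
      omega
    rw [h0, Subgroup.mem_bot] at hx
    exact ⟨0, by simp, by rw [hx]; rfl⟩
  | succ k ih =>
    intro hk x hx
    have hk' : k < m := hk
    set a := s k with ha
    have ha3 : a ^ 3 = 1 := hcube k hk'
    -- conjugation by `a` preserves the smaller group
    have hc : ∀ t ∈ Tk s k, a * t * a⁻¹ ∈ Tk s k := by
      intro t ht
      induction ht using Subgroup.closure_induction with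
      | mem y hy =>
        obtain ⟨j, hj, rfl⟩ := hy
        obtain ⟨w, hw⟩ := hrel k hk' j hj
        rw [hw]
        exact elt_mem s k w
      | one => simp
      | mul y z _ _ hy hz =>
        have : a * (y * z) * a⁻¹ = (a * y * a⁻¹) * (a * z * a⁻¹) := by group
        rw [this]
        exact mul_mem hy hz
      | inv y _ hy =>
        have : a * y⁻¹ * a⁻¹ = (a * y * a⁻¹)⁻¹ := by group
        rw [this]
        exact inv_mem hy
    have hainv : a⁻¹ = a ^ 2 := by
      have h : a ^ 2 * a = 1 := by rw [← pow_succ]; exact ha3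
      exact inv_eq_of_mul_eq_one_left h
    have hc' : ∀ t ∈ Tk s k, a⁻¹ * t * a ∈ Tk s k := by
      intro t ht
      have h1 := hc _ (hc _ ht)
      have e1 : a⁻¹ = a * a := by rw [hainv, pow_two]
      have e2 : a⁻¹ * a⁻¹ = a := by
        have h3 : a * (a * a) = 1 := by
          have : a ^ 3 = 1 := ha3
          rwa [pow_succ, pow_two, mul_assoc] at this
        calc a⁻¹ * a⁻¹ = a⁻¹ * a⁻¹ * (a * (a * a)) := by rw [h3, mul_one]
          _ = a := by group
      have : a⁻¹ * t * a = a * (a * t * a⁻¹) * a⁻¹ := by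
        calc a⁻¹ * t * a = a * a * t * a := by rw [e1]
          _ = a * a * t * (a⁻¹ * a⁻¹) := by rw [e2]
          _ = a * (a * t * a⁻¹) * a⁻¹ := by group
      rw [this]
      exact h1
    have hcn : ∀ d : Nat, ∀ t ∈ Tk s k, a ^ d * t * (a ^ d)⁻¹ ∈ Tk s k := by
      intro d
      induction d with
      | zero => intro t ht; simpa using ht
      | succ d ihd =>
        intro t ht
        have : a ^ (d + 1) * t * (a ^ (d + 1))⁻¹ = a ^ d * (a * t * a⁻¹) * (a ^ d)⁻¹ := by
          rw [pow_succ]; group
        rw [this]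
        exact ihd _ (hc _ ht)
    have hcn' : ∀ d : Nat, ∀ t ∈ Tk s k, (a ^ d)⁻¹ * t * a ^ d ∈ Tk s k := by
      intro d
      induction d with
      | zero => intro t ht; simpa using ht
      | succ d ihd =>
        intro t ht
        have : (a ^ (d + 1))⁻¹ * t * a ^ (d + 1) = a⁻¹ * ((a ^ d)⁻¹ * t * a ^ d) * a := by
          rw [pow_succ']; group
        rw [this]
        exact hc' _ (ihd _ ht)
    -- normal form with unbounded exponent
    have hB : ∃ d : Nat, ∃ t ∈ Tk s k, x = a ^ d * t := by
      induction hx using Subgroup.closure_induction with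
      | mem y hy =>
        obtain ⟨j, hj, rfl⟩ := hy
        rcases Nat.lt_succ_iff_lt_or_eq.1 hj with h1 | h1
        · exact ⟨0, s j, s_mem h1, by simp⟩
        · refine ⟨1, 1, one_mem _, ?_⟩
          rw [h1]
          simp [ha]
      | one => exact ⟨0, 1, one_mem _, by simp⟩
      | mul y z _ _ hy hz =>
        obtain ⟨d, t, ht, rfl⟩ := hy
        obtain ⟨d', t', ht', rfl⟩ := hz
        refine ⟨d + d', (a ^ d')⁻¹ * t * a ^ d' * t', mul_mem (hcn' d' t ht) ht', ?_⟩
        rw [pow_add]
        group
      | inv y _ hy =>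
        obtain ⟨d, t, ht, rfl⟩ := hy
        refine ⟨2 * d, a ^ d * t⁻¹ * (a ^ d)⁻¹, hcn d _ (inv_mem ht), ?_⟩
        have h1 : (a ^ d)⁻¹ = a ^ (2 * d) := by
          have : a ^ (2 * d) * a ^ d = 1 := by
            rw [← pow_add, show 2 * d + d = 3 * d by ring, pow_mul, ha3, one_pow]
          exact inv_eq_of_mul_eq_one_left this
        rw [mul_inv_rev, ← h1]
        group
    obtain ⟨d, t, ht, rfl⟩ := hB
    obtain ⟨e, he, rfl⟩ := ih (by omega) t ht
    have hd : a ^ d = a ^ (d % 3) := by
      conv_lhs => rw [← Nat.div_add_mod d 3, pow_add, pow_mul, ha3, one_pow, one_mul]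
    have hd3 : d % 3 < 3 := Nat.mod_lt _ (by norm_num)
    refine ⟨(d % 3) * 3 ^ k + e, ?_, ?_⟩
    · rw [pow_succ]
      have : (d % 3 + 1) * 3 ^ k ≤ 3 * 3 ^ k := Nat.mul_le_mul_right _ hd3
      nlinarith
    · have hpos : 0 < 3 ^ k := by positivity
      have h1 : ((d % 3) * 3 ^ k + e) / 3 ^ k = d % 3 := by
        rw [add_comm, Nat.add_mul_div_right _ _ hpos, Nat.div_eq_of_lt he, zero_add]
      have h2 : ((d % 3) * 3 ^ k + e) % 3 ^ k = e := by
        rw [add_comm, Nat.add_mul_mod_self_right, Nat.mod_eq_of_lt he]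
      show a ^ d * elt s k e = s k ^ (((d % 3) * 3 ^ k + e) / 3 ^ k) * elt s k (((d % 3) * 3 ^ k + e) % 3 ^ k)
      rw [h1, h2, ← ha, ← hd]

/-- Values of normal forms. -/
def evalE (ts : Nat → Nat → Nat) : Nat → Nat → Nat → Nat
  | 0, _, p => p
  | k + 1, e, p => (ts k)^[e / 3 ^ k] (evalE ts k (e % 3 ^ k) p)

section perm

variable {n : Nat} (φ : Γ →* Equiv.Perm (Fin n))

/-- The action of a power. -/
theorem pow_apply_val {x : Γ} {t : Nat → Nat} (hx : ∀ p : Fin n, (φ x p).val = t p.val) (d : Nat)
    (p : Fin n) : (φ (x ^ d) p).val = t^[d] p.val := by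
  induction d with
  | zero => simp
  | succ d ih =>
    rw [pow_succ', map_mul, Equiv.Perm.mul_apply, hx, ih, Function.iterate_succ_apply']

theorem elt_apply {s : Nat → Γ} {ts : Nat → Nat → Nat} {m : Nat}
    (hs : ∀ k, k < m → ∀ p : Fin n, (φ (s k) p).val = ts k p.val) :
    ∀ k, k ≤ m → ∀ e (p : Fin n), (φ (elt s k e) p).val = evalE ts k e p.val := by
  intro k
  induction k with
  | zero => intro _ e p; simp [elt, evalE]
  | succ k ih =>
    intro hk e p
    rw [elt, map_mul, Equiv.Perm.mul_apply, pow_apply_val φ (hs k (by omega)), ih (by omega)]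
    rfl

end perm

/-- Codes of base images. -/
def codeL (l : List Nat) : Nat := l.foldl (fun a x => a * 512 + x) 0

theorem pairwise_of_adj (f : Nat → Nat) (ℓ : Nat → Nat) (N : Nat)
    (h : ∀ i, i + 1 < N → f (ℓ i) < f (ℓ (i + 1))) :
    List.Pairwise (fun a b => f a < f b) ((List.range N).map ℓ) := by
  have hmono : ∀ d i, i + d + 1 < N → f (ℓ i) < f (ℓ (i + d + 1)) := by
    intro d
    induction d with
    | zero => intro i hi; exact h i hi
    | succ d ih =>
      intro i hi
      have h1 := ih i (by omega)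
      have h2 := h (i + d + 1) (by omega)
      exact lt_trans h1 h2
  rw [List.pairwise_map]
  refine (List.pairwise_lt_range (n := N)).imp_of_mem ?_
  intro a b ha hb hab
  obtain ⟨d, rfl⟩ : ∃ d, b = a + d + 1 := ⟨b - a - 1, by omega⟩
  exact hmono d a (by simpa using hb)

section main

variable [Finite Γ] {n : Nat} (φ : Γ →* Equiv.Perm (Fin n)) (hφ : Function.Injective φ)

/-- The values of the base points. -/
noncomputable def keyG (base : List Nat) (g : Γ) : List Nat :=
  base.map fun b => if h : b < n then (φ g ⟨b, h⟩).val else 0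

/-- The main counting lemma: the normal forms fill the subgroup and are separated by the base. -/
theorem card_and_key {m : Nat} {s : Nat → Γ} {ts : Nat → Nat → Nat}
    (hs : ∀ k, k < m → ∀ p : Fin n, (φ (s k) p).val = ts k p.val)
    (hcube : ∀ k, k < m → s k ^ 3 = 1)
    (hrel : ∀ k, k < m → ∀ j, j < k → ∃ w, s k * s j * (s k)⁻¹ = elt s k w)
    (base : List Nat) (hb : ∀ b ∈ base, b < n) (L : List Nat)
    (hlen : L.length = 3 ^ m)
    (hpw : List.Pairwise (fun a b => codeL (base.map (evalE ts m a)) < codeL (base.map (evalE ts m b))) L) :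
    Nat.card (Tk s m) = 3 ^ m ∧ ∀ g ∈ Tk s m, ∀ g' ∈ Tk s m,
      keyG φ base g = keyG φ base g' → g = g' := by
  classical
  have hkey : ∀ e, keyG φ base (elt s m e) = base.map (evalE ts m e) := by
    intro e
    apply List.map_congr_left
    intro b hbb
    rw [dif_pos (hb b hbb), elt_apply φ hs m le_rfl]
  set code : Nat → Nat := fun e => codeL (base.map (evalE ts m e)) with hcode
  have : Fintype Γ := Fintype.ofFinite Γ
  -- the elements of the list are distinct
  have hnodup : (L.map (elt s m)).Nodup := by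
    rw [List.Nodup, List.pairwise_map]
    refine hpw.imp ?_
    intro a b hab heq
    have h1 : keyG φ base (elt s m a) = keyG φ base (elt s m b) := by rw [heq]
    rw [hkey, hkey] at h1
    have h2 : code a = code b := by simp only [hcode]; rw [h1]
    have h3 : code a < code b := hab
    omega
  have hup : ∀ x ∈ Tk s m, ∃ e, e < 3 ^ m ∧ x = elt s m e := exists_elt s m hcube hrel m le_rfl
  -- sets
  let A : Finset Γ := (L.map (elt s m)).toFinset
  let B : Finset Γ := (Finset.range (3 ^ m)).image (elt s m)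
  have hA : A.card = 3 ^ m := by
    rw [List.toFinset_card_of_nodup hnodup, List.length_map, hlen]
  have hB : B.card ≤ 3 ^ m := by
    refine le_trans Finset.card_image_le ?_
    simp
  have hAT : ∀ x ∈ A, x ∈ Tk s m := by
    intro x hx
    simp only [A, List.mem_toFinset, List.mem_map] at hx
    obtain ⟨e, _, rfl⟩ := hx
    exact elt_mem s m e
  have hTB : ∀ x ∈ Tk s m, x ∈ B := by
    intro x hx
    obtain ⟨e, he, rfl⟩ := hup x hx
    exact Finset.mem_image_of_mem _ (Finset.mem_range.2 he)
  have hAB : A ⊆ B := fun x hx => hTB x (hAT x hx)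
  have hABeq : A = B := Finset.eq_of_subset_of_card_le hAB (by rw [hA]; exact hB)
  have hTA : ∀ x ∈ Tk s m, x ∈ A := fun x hx => by rw [hABeq]; exact hTB x hx
  refine ⟨?_, ?_⟩
  · have : Nat.card (Tk s m) = A.card := by
      calc Nat.card (Tk s m) = Nat.card {x // x ∈ A} :=
            Nat.card_congr (Equiv.subtypeEquivRight fun x => ⟨hTA x, hAT x⟩)
        _ = A.card := by rw [Nat.card_eq_fintype_card, Fintype.card_coe]
    rw [this, hA]
  · intro g hg g' hg' hk
    have h1 := hTA g hg
    have h2 := hTA g' hg'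
    simp only [A, List.mem_toFinset, List.mem_map] at h1 h2
    obtain ⟨a, ha, rfl⟩ := h1
    obtain ⟨b, hb', rfl⟩ := h2
    rw [hkey, hkey] at hk
    have hcodeeq : code a = code b := by simp only [hcode]; rw [hk]
    -- a pairwise strictly increasing list separates its members
    have hinj : ∀ {L : List Nat}, List.Pairwise (fun a b => code a < code b) L →
        ∀ a ∈ L, ∀ b ∈ L, code a = code b → a = b := by
      intro L hL
      induction hL with
      | nil => intro a ha; simp at ha
      | @cons x l hx _ ih =>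
        intro a ha b hb hab
        rcases List.mem_cons.1 ha with ha2 | ha2
        · rcases List.mem_cons.1 hb with hb2 | hb2
          · rw [ha2, hb2]
          · have := hx b hb2
            rw [ha2] at hab
            omega
        · rcases List.mem_cons.1 hb with hb2 | hb2
          · have := hx a ha2
            rw [hb2] at hab
            omega
          · exact ih a ha2 b hb2 hab
    rw [hinj hpw a ha b hb' hcodeeq]

/-- The check of the enumeration. -/
def chkE (ts : Nat → Nat → Nat) (m : Nat) (base : List Nat) (C repE : Nat → Nat) (nr e : Nat) : Bool :=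
  bif Nat.blt (C e % 128) nr then
    base.all fun b => Nat.beq (evalE ts m (C e / 128) (evalE ts m e b))
      (evalE ts m (repE (C e % 128)) (evalE ts m (C e / 128) b))
  else
    Nat.beq e 0 || base.any fun b => !(Nat.beq (evalE ts m e (evalE ts m e (evalE ts m e b))) b)

theorem elt_zero (s : Nat → Γ) : ∀ k, elt s k 0 = 1
  | 0 => rfl
  | k + 1 => by
    simp only [elt, Nat.zero_div, pow_zero, one_mul, Nat.zero_mod]
    exact elt_zero s k

theorem chkE_spec {m : Nat} {s : Nat → Γ} {ts : Nat → Nat → Nat}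
    (hs : ∀ k, k < m → ∀ p : Fin n, (φ (s k) p).val = ts k p.val)
    {base : List Nat} (hb : ∀ b ∈ base, b < n)
    (hinj : ∀ g ∈ Tk s m, ∀ g' ∈ Tk s m, keyG φ base g = keyG φ base g' → g = g')
    {C repE : Nat → Nat} {nr e : Nat} (h : chkE ts m base C repE nr e = true) :
    e = 0 ∨ elt s m e ^ 3 ≠ 1 ∨
      ∃ r g, r < nr ∧ g ∈ Tk s m ∧ g * elt s m e = elt s m (repE r) * g := by
  have hv := elt_apply φ hs m le_rfl
  unfold chkE at h
  cases hc : Nat.blt (C e % 128) nr with
  | true =>
    rw [hc, cond_true, List.all_eq_true] at h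
    right; right
    refine ⟨C e % 128, elt s m (C e / 128), by rwa [Nat.blt_eq] at hc, elt_mem s m _, ?_⟩
    apply hinj _ (mul_mem (elt_mem s m _) (elt_mem s m _)) _ (mul_mem (elt_mem s m _) (elt_mem s m _))
    apply List.map_congr_left
    intro b hbb
    have hb' := hb b hbb
    rw [dif_pos hb', dif_pos hb', map_mul, map_mul, Equiv.Perm.mul_apply, Equiv.Perm.mul_apply, hv, hv,
      hv, hv]
    have := h b hbb
    rw [Nat.beq_eq] at this
    exact this
  | false =>
    rw [hc, cond_false, Bool.or_eq_true] at h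
    rcases h with h | h
    · left
      rwa [Nat.beq_eq] at h
    · right; left
      rw [List.any_eq_true] at h
      obtain ⟨b, hbb, hne⟩ := h
      intro h1
      have hb' := hb b hbb
      have h2 : (φ (elt s m e ^ 3) ⟨b, hb'⟩).val = b := by rw [h1]; simp
      have h3 : elt s m e ^ 3 = elt s m e * (elt s m e * elt s m e) := by
        rw [pow_succ, pow_two, mul_assoc]
      rw [h3, map_mul, map_mul, Equiv.Perm.mul_apply, Equiv.Perm.mul_apply, hv, hv, hv] at h2
      have h4 : evalE ts m e (evalE ts m e (evalE ts m e b)) = b := h2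
      rw [h4] at hne
      simp at hne

include hφ in
/-- The classes of elements of order three in a polycyclic subgroup. -/
theorem classes_of_data {m : Nat} {s : Nat → Γ} {ts : Nat → Nat → Nat}
    (hs : ∀ k, k < m → ∀ p : Fin n, (φ (s k) p).val = ts k p.val)
    (hcube : ∀ k, k < m → s k ^ 3 = 1)
    (hrel : ∀ k, k < m → ∀ j, j < k → ∃ w, s k * s j * (s k)⁻¹ = elt s k w)
    (base : List Nat) (hb : ∀ b ∈ base, b < n) (ℓ : Nat → Nat)
    (hsort : ∀ i, i + 1 < 3 ^ m → codeL (base.map (evalE ts m (ℓ i))) <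
      codeL (base.map (evalE ts m (ℓ (i + 1)))))
    (C repE : Nat → Nat) (nr : Nat) (hE : ∀ e, e < 3 ^ m → chkE ts m base C repE nr e = true)
    (x h : Nat → Γ) (xt ht : Nat → Nat → Nat) (ic ia : Nat → Nat)
    (hx : ∀ r, r < nr → ∀ p : Fin n, (φ (x (ic r)) p).val = xt (ic r) p.val)
    (hh : ∀ r, r < nr → ∀ p : Fin n, (φ (h r) p).val = ht r p.val)
    (hrep : ∀ r, r < nr → ∀ p, p < n →
      ht r (evalE ts m (repE r) p) = (xt (ic r))^[ia r] (ht r p)) :
    Nat.card (Tk s m) = 3 ^ m ∧ ∀ z ∈ Tk s m, z ^ 3 = 1 → z ≠ 1 →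
      ∃ g r, r < nr ∧ g * z * g⁻¹ = x (ic r) ^ ia r := by
  have hpw := pairwise_of_adj (fun e => codeL (base.map (evalE ts m e))) ℓ (3 ^ m) hsort
  obtain ⟨hcard, hinj⟩ := card_and_key φ hs hcube hrel base hb ((List.range (3 ^ m)).map ℓ)
    (by simp) hpw
  refine ⟨hcard, ?_⟩
  intro z hz hz3 hz1
  obtain ⟨e, he, rfl⟩ := exists_elt s m hcube hrel m le_rfl z hz
  rcases chkE_spec φ hs hb hinj (hE e he) with h0 | h3 | ⟨r, g, hr, _, hg⟩
  · exact absurd (by rw [h0, elt_zero]) hz1
  · exact absurd hz3 h3
  · refine ⟨h r * g, r, hr, ?_⟩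
    have h1 : h r * elt s m (repE r) = x (ic r) ^ ia r * h r := by
      apply hφ
      ext p
      rw [map_mul, map_mul, Equiv.Perm.mul_apply, Equiv.Perm.mul_apply, hh r hr,
        elt_apply φ hs m le_rfl, pow_apply_val φ (hx r hr), hh r hr]
      exact hrep r hr p.val p.2
    have h2 : g * elt s m e * g⁻¹ = elt s m (repE r) := by
      rw [hg]; group
    calc h r * g * elt s m e * (h r * g)⁻¹ = h r * (g * elt s m e * g⁻¹) * (h r)⁻¹ := by group
      _ = x (ic r) ^ ia r := by rw [h2, h1]; group

end main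

end Cfsg.Agent.Lib.O73.Gen
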