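import Cfsg.Agent.Lib.TC.D.Fi22H.Tgt
import Cfsg.Agent.Lib.O73.Gen

/-! Permutation representations of the presented group of `Ω₇(3)`. -/

namespace Cfsg.Agent.Lib.O73.Hom

open Cfsg.Agent.Lib.TC.Core Cfsg.Agent.Lib.TC.Pres Cfsg.Agent.Lib.TC.Main Cfsg.Agent.Lib.TC.Iso
  Cfsg.Agent.Lib.TC.SubPres Cfsg.Agent.Lib.TC.D.Fi22H.Ok Cfsg.Agent.Lib.TC.D.Fi22H.Tgt
  Cfsg.Agent.Lib.TC.D.Fi22Chain.S1_Tab

/-- The presented group. -/
abbrev Γ := PresentedGroup Rp

/-- The letters. -/
noncomputable abbrev E : Nat → Γ := Kp.E Rp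

/-- The value of a word at a point. -/
def valW (t : Nat → Nat → Nat) (l : List Nat) (p : Nat) : Nat := l.foldl (fun x z => t z x) p

/-- An involution from a table. -/
def mkP {N : Nat} (f : Nat → Nat) (h : ∀ p, p < N → f p < N ∧ f (f p) = p) : Equiv.Perm (Fin N) where
  toFun p := ⟨f p.val, (h p.val p.2).1⟩
  invFun p := ⟨f p.val, (h p.val p.2).1⟩
  left_inv p := Fin.ext (h p.val p.2).2
  right_inv p := Fin.ext (h p.val p.2).2

theorem exists_hom (N : Nat) (t : Nat → Nat → Nat)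
    (h1 : ∀ c, c < 8 → ∀ p, p < N → t c p < N ∧ t c (t c p) = p)
    (h2 : ∀ l ∈ rels', ∀ p, p < N → valW t l p = p) :
    ∃ φ : Γ →* Equiv.Perm (Fin N), ∀ l : List Nat, (∀ z ∈ l, z < 8) → ∀ p : Fin N,
      (φ (prodA E l) p).val = valW t l p.val := by
  classical
  let F : Nat → Equiv.Perm (Fin N) := fun c => if hc : c < 8 then mkP (t c) (h1 c hc) else 1
  have hF : ∀ c, c < 8 → ∀ p : Fin N, (F c p).val = t c p.val := by
    intro c hc p
    simp only [F, dif_pos hc]
    rfl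
  have hFF : ∀ l : List Nat, (∀ z ∈ l, z < 8) → ∀ p : Fin N,
      (prodA F l p).val = valW t l p.val := by
    intro l
    induction l with
    | nil => intro _ p; rfl
    | cons z l ih =>
      intro hl p
      rw [prodA_cons, Equiv.Perm.mul_apply, ih (fun y hy => hl y (by simp [hy]))]
      rw [hF z (hl z (by simp))]
      rfl
  have hinv : ∀ c, c < Kp.k → F (Kp.inv c) = (F c)⁻¹ := by
    intro c hc
    have hc' : c < 8 := hc
    apply eq_inv_of_mul_eq_one_left
    ext p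
    have : Kp.inv c = c := rfl
    rw [this, Equiv.Perm.mul_apply, hF c hc', hF c hc']
    exact (h1 c hc' _ p.2).2
  have hrel : ∀ l ∈ rels', prodA F l = 1 := by
    intro l hl
    ext p
    rw [hFF l (hk l hl) p, h2 l hl p.val p.2]
    rfl
  obtain ⟨ψ, hψ⟩ := exists_hom_of_letters hv (Cfsg.Agent.Lib.TC.SubPres.hR 8 rels' hk) F hinv hrel
  refine ⟨ψ, fun l hl p => ?_⟩
  rw [hom_prodA ψ F hψ l hl]
  exact hFF l hl p

/-- A non-trivial homomorphism from the presented group is injective. -/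
theorem inj_of_ne {Q : Type*} [Group Q] (φ : Γ →* Q) {x : Γ} (hx : φ x ≠ 1) : Function.Injective φ := by
  rw [← MonoidHom.ker_eq_bot_iff]
  rcases Subgroup.Normal.eq_bot_or_eq_top (inferInstance : φ.ker.Normal) with h | h
  · exact h
  · exfalso
    apply hx
    have : x ∈ φ.ker := by rw [h]; trivial
    exact this

end Cfsg.Agent.Lib.O73.Hom
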