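import Cfsg.Agent.Lib.O73.Checks
import Cfsg.Agent.Lib.TC.D.Fi22H.Main

/-! The classes of subgroups of order three of the presented group of `Ω₇(3)`. -/

namespace Cfsg.Agent.Lib.O73.Main

open Cfsg.Agent.Lib.O73.Gen Cfsg.Agent.Lib.O73.Data Cfsg.Agent.Lib.O73.Hom Cfsg.Agent.Lib.O73.Checks
open Cfsg.Agent.Lib.TC.Core Cfsg.Agent.Lib.TC.D.Fi22Chain.S1_Tab

set_option maxRecDepth 100000

theorem hA1 : ∀ c, c < 8 → ∀ p, p < 364 → tA c p < 364 ∧ tA c (tA c p) = p := by
  intro c hc p hp
  have h := List.all_eq_true.1 chk1A c (List.mem_range.2 hc)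
  have h2 := allLt_spec h (by norm_num) hp
  simp only [Bool.and_eq_true, Nat.blt_eq, Nat.beq_eq] at h2
  exact h2

theorem hA2 : ∀ l ∈ rels', ∀ p, p < 364 → valW tA l p = p := by
  intro l hl p hp
  have h := List.all_eq_true.1 chk2A l hl
  have h2 := allLt_spec h (by norm_num) hp
  simpa only [Nat.beq_eq] using h2

theorem hB1 : ∀ c, c < 8 → ∀ p, p < 1080 → tB c p < 1080 ∧ tB c (tB c p) = p := by
  intro c hc p hp
  have h := List.all_eq_true.1 chk1B c (List.mem_range.2 hc)
  have h2 := allLt_spec h (by norm_num) hp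
  simp only [Bool.and_eq_true, Nat.blt_eq, Nat.beq_eq] at h2
  exact h2

theorem hB2 : ∀ l ∈ rels', ∀ p, p < 1080 → valW tB l p = p := by
  intro l hl p hp
  have h := List.all_eq_true.1 chk2B l hl
  have h2 := allLt_spec h (by norm_num) hp
  simpa only [Nat.beq_eq] using h2

/-- The action on 364 points. -/
noncomputable def φA : Γ →* Equiv.Perm (Fin 364) := Classical.choose (exists_hom 364 tA hA1 hA2)

theorem φA_spec (l : List Nat) (hl : ∀ z ∈ l, z < 8) (p : Fin 364) :
    (φA (prodA E l) p).val = valW tA l p.val :=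
  Classical.choose_spec (exists_hom 364 tA hA1 hA2) l hl p

/-- The action on 1080 points. -/
noncomputable def φB : Γ →* Equiv.Perm (Fin 1080) := Classical.choose (exists_hom 1080 tB hB1 hB2)

theorem φB_spec (l : List Nat) (hl : ∀ z ∈ l, z < 8) (p : Fin 1080) :
    (φB (prodA E l) p).val = valW tB l p.val :=
  Classical.choose_spec (exists_hom 1080 tB hB1 hB2) l hl p

theorem letters_of_all {W : List (List Nat)} (h : (W.all fun l => l.all fun z => Nat.blt z 8) = true)
    (k : Nat) : ∀ z ∈ W.getD k [], z < 8 := by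
  intro z hz
  by_cases hk : k < W.length
  · have h1 : W.getD k [] ∈ W := by
      rw [List.getD_eq_getElem _ _ hk]
      exact List.getElem_mem hk
    have h2 := List.all_eq_true.1 (List.all_eq_true.1 h _ h1) z hz
    rwa [Nat.blt_eq] at h2
  · rw [List.getD_eq_default _ _ (by omega)] at hz
    simp at hz

theorem lS : (WS.all fun l => l.all fun z => Nat.blt z 8) = true := by decide +kernel
theorem lX : (WX.all fun l => l.all fun z => Nat.blt z 8) = true := by decide +kernel
theorem lH : (WH.all fun l => l.all fun z => Nat.blt z 8) = true := by decide +kernel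

/-- The polycyclic generators. -/
noncomputable def s (k : Nat) : Γ := prodA E (WS.getD k [])

/-- The representatives. -/
noncomputable def x (i : Nat) : Γ := prodA E (WX.getD i [])

/-- The conjugating elements. -/
noncomputable def h (r : Nat) : Γ := prodA E (WH.getD r [])

theorem hs : ∀ k, k < 9 → ∀ p : Fin 364, (φA (s k) p).val = ts k p.val := by
  intro k hk p
  rw [s, φA_spec _ (letters_of_all lS k)]
  have h := List.all_eq_true.1 chkS k (List.mem_range.2 hk)
  have h2 := allLt_spec h (by norm_num) p.2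
  simpa only [Nat.beq_eq] using h2

theorem hx (i : Nat) (p : Fin 364) : (φA (x i) p).val = xt i p.val := by
  rw [x, φA_spec _ (letters_of_all lX i)]
  rfl

theorem hh (r : Nat) (p : Fin 364) : (φA (h r) p).val = valW tA (WH.getD r []) p.val := by
  rw [h, φA_spec _ (letters_of_all lH r)]

theorem φA_s0 : φA (s 0) ≠ 1 := by
  intro h1
  have h2 := hs 0 (by norm_num) ⟨0, by norm_num⟩
  rw [h1] at h2
  have h3 : ts 0 0 = 156 := by decide +kernel
  simp only [Equiv.Perm.one_apply] at h2
  rw [h3] at h2
  exact absurd h2 (by norm_num)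

theorem hφA : Function.Injective φA := inj_of_ne φA φA_s0

theorem hcube : ∀ k, k < 9 → s k ^ 3 = 1 := by
  intro k hk
  apply hφA
  rw [map_one]
  ext p
  rw [pow_apply_val φA (hs k hk)]
  have h := List.all_eq_true.1 chkCube k (List.mem_range.2 hk)
  have h2 := allLt_spec h (by norm_num) p.2
  exact Nat.eq_of_beq_eq_true h2

theorem hrel : ∀ k, k < 9 → ∀ j, j < k → ∃ w, s k * s j * (s k)⁻¹ = elt s k w := by
  intro k hk j hj
  refine ⟨pcw k j, ?_⟩
  rw [mul_inv_eq_iff_eq_mul]
  apply hφA
  ext p
  rw [map_mul, map_mul, Equiv.Perm.mul_apply, Equiv.Perm.mul_apply, hs k hk, hs j (by omega),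
    elt_apply φA hs k (by omega), hs k hk]
  have h := List.all_eq_true.1 (List.all_eq_true.1 chkPc k (List.mem_range.2 hk)) j (List.mem_range.2 hj)
  have h2 := allLt_spec h (by norm_num) p.2
  simpa only [Nat.beq_eq] using h2

theorem hb : ∀ b ∈ base, b < 364 := by
  intro b hb
  simp only [base, List.mem_cons, List.not_mem_nil, or_false] at hb
  omega

theorem hsort : ∀ i, i + 1 < 3 ^ 9 → codeL (base.map (evalE ts 9 (ell i))) <
    codeL (base.map (evalE ts 9 (ell (i + 1)))) := by
  intro i hi
  have h3 : (3 : Nat) ^ 9 = 19683 := by norm_num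
  have h1 := forall_of_chunks chkSort0 chkSort1 chkSort2 chkSort3 chkSort4 (i := i) (by omega)
  simp only [fSort, Bool.or_eq_true, Bool.not_eq_true', Nat.blt_eq] at h1
  rcases h1 with h1 | h1
  · have : Nat.blt i 19682 = true := by rw [Nat.blt_eq]; omega
    rw [this] at h1
    exact absurd h1 (by decide)
  · exact h1

theorem hE : ∀ e, e < 3 ^ 9 → chkE ts 9 base cC repE nr e = true := by
  intro e he
  have h3 : (3 : Nat) ^ 9 = 19683 := by norm_num
  have h1 := forall_of_chunks chkEnum0 chkEnum1 chkEnum2 chkEnum3 chkEnum4 (i := e) (by omega)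
  simp only [fEnum, Bool.or_eq_true, Bool.not_eq_true'] at h1
  rcases h1 with h1 | h1
  · have : Nat.blt e 19683 = true := by rw [Nat.blt_eq]; omega
    rw [this] at h1
    exact absurd h1 (by decide)
  · exact h1

theorem hrep : ∀ r, r < nr → ∀ p, p < 364 →
    valW tA (WH.getD r []) (evalE ts 9 (repE r) p) =
      (xt (ic r))^[ia r] (valW tA (WH.getD r []) p) := by
  intro r hr p hp
  have hnr : nr = 126 := by decide
  have h1 : fRep r = true := by
    have h8 : (2 : Nat) ^ 3 = 8 := by norm_num
    have hk : r < 16 * 8 := by omega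
    have hq : r / 8 < 16 := by omega
    have hall : ∀ k, k < 16 → allR fRep 3 (k * 8) = true := by
      intro k hk
      interval_cases k
      · exact chkRep0
      · exact chkRep1
      · exact chkRep2
      · exact chkRep3
      · exact chkRep4
      · exact chkRep5
      · exact chkRep6
      · exact chkRep7
      · exact chkRep8
      · exact chkRep9
      · exact chkRep10
      · exact chkRep11
      · exact chkRep12
      · exact chkRep13
      · exact chkRep14
      · exact chkRep15
    refine allR_spec fRep 3 _ (hall (r / 8) hq) r ?_ ?_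
    · have := Nat.div_mul_le_self r 8
      exact this
    · have := Nat.lt_div_mul_add (a := r) (b := 8) (by norm_num)
      omega
  simp only [fRep, Bool.or_eq_true, Bool.not_eq_true'] at h1
  rcases h1 with h1 | h1
  · have : Nat.blt r nr = true := by rw [Nat.blt_eq]; exact hr
    rw [this] at h1
    exact absurd h1 (by decide)
  · have h2 := allLt_spec h1 (by norm_num) hp
    simpa only [Nat.beq_eq] using h2

/-- The main data theorem. -/
theorem data : Nat.card (Tk s 9) = 3 ^ 9 ∧ ∀ z ∈ Tk s 9, z ^ 3 = 1 → z ≠ 1 →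
    ∃ g r, r < nr ∧ g * z * g⁻¹ = x (ic r) ^ ia r :=
  classes_of_data φA hφA hs hcube hrel base hb ell hsort cC repE nr hE x h xt
    (fun r p => valW tA (WH.getD r []) p) ic ia (fun r _ p => hx _ p) (fun r _ p => hh r p) hrep

/-- The count of moved points. -/
theorem support_card {N : Nat} (q : Equiv.Perm (Fin N)) (f : Nat → Nat)
    (hf : ∀ p : Fin N, (q p).val = f p.val) : q.support.card = cntM f N := by
  classical
  let g : Nat → Nat := fun k => bif Nat.beq (f k) k then 0 else 1
  have h1 : ∀ n, cntM f n = ∑ i ∈ Finset.range n, g i := by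
    intro n
    induction n with
    | zero => rfl
    | succ n ih => rw [Finset.sum_range_succ, ← ih]; rfl
  rw [h1, ← Fin.sum_univ_eq_sum_range]
  have h2 : q.support = Finset.univ.filter (fun p => q p ≠ p) := by
    ext p
    simp
  rw [h2, Finset.card_filter]
  apply Finset.sum_congr rfl
  intro p _
  have h3 : (q p ≠ p) ↔ (f p.val ≠ p.val) := by
    rw [← hf p, Ne, Ne, Fin.ext_iff]
  by_cases h4 : f p.val = p.val
  · have h5 : ¬ (q p ≠ p) := by rw [h3]; simpa using h4
    rw [if_neg h5]
    simp [g, h4]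
  · have h5 : (q p ≠ p) := by rw [h3]; exact h4
    rw [if_pos h5]
    have h6 : Nat.beq (f p.val) p.val = false := by
      rw [← Bool.not_eq_true, Nat.beq_eq]; exact h4
    simp [g, h6]

theorem moved_A {i : Nat} (hi : i < 7) : (φA (x i)).support.card = mA.getD i 0 := by
  rw [support_card _ (xt i) (hx i)]
  have h := List.all_eq_true.1 chkMA i (List.mem_range.2 hi)
  rwa [Nat.beq_eq] at h

theorem moved_B {i : Nat} (hi : i < 7) : (φB (x i)).support.card = mB.getD i 0 := by
  rw [x, support_card _ (valW tB (WX.getD i [])) (fun p => φB_spec _ (letters_of_all lX i) p)]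
  have h := List.all_eq_true.1 chkMB i (List.mem_range.2 hi)
  rwa [Nat.beq_eq] at h

theorem x_cube {i : Nat} (hi : i < 7) : x i ^ 3 = 1 := by
  apply hφA
  rw [map_one]
  ext p
  rw [pow_apply_val φA (hx i)]
  have h := List.all_eq_true.1 chkXcube i (List.mem_range.2 hi)
  have h2 := allLt_spec h (by norm_num) p.2
  exact Nat.eq_of_beq_eq_true h2

theorem mA_pos : ∀ i, i < 7 → mA.getD i 0 ≠ 0 := by decide

theorem x_ne {i : Nat} (hi : i < 7) : x i ≠ 1 := by
  intro h1
  have h2 := moved_A hi
  rw [h1, map_one] at h2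
  exact mA_pos i hi (by rw [← h2]; simp)

theorem x_order {i : Nat} (hi : i < 7) : orderOf (x i) = 3 :=
  orderOf_eq_prime (x_cube hi) (x_ne hi)

theorem sep : ∀ i, i < 7 → ∀ j, j < 7 → mA.getD i 0 = mA.getD j 0 → mB.getD i 0 = mB.getD j 0 → i = j := by
  decide

open scoped Pointwise in
/-- Conjugating a subgroup of order three. -/
theorem map_conj_zpowers (g y : Γ) : (Subgroup.zpowers y).map (MulAut.conj g).toMonoidHom =
    Subgroup.zpowers (g * y * g⁻¹) := by
  rw [MonoidHom.map_zpowers]
  rfl

theorem support_conj {N : Nat} (φ : Γ →* Equiv.Perm (Fin N)) (g y : Γ) :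
    (φ (g * y * g⁻¹)).support.card = (φ y).support.card := by
  rw [map_mul, map_mul, map_inv]
  exact Equiv.Perm.card_support_conj

theorem support_sq {N : Nat} (φ : Γ →* Equiv.Perm (Fin N)) {y : Γ} (hy : y ^ 3 = 1) :
    (φ (y ^ 2)).support.card = (φ y).support.card := by
  have h1 : y ^ 2 = y⁻¹ := by
    apply eq_inv_of_mul_eq_one_left
    rw [← pow_succ]
    exact hy
  rw [h1, map_inv, Equiv.Perm.support_inv]

/-- The seven subgroups are not conjugate. -/
theorem no_conj {i j : Nat} (hi : i < 7) (hj : j < 7) (g : Γ)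
    (hg : (Subgroup.zpowers (x i)).map (MulAut.conj g).toMonoidHom = Subgroup.zpowers (x j)) : i = j := by
  rw [map_conj_zpowers] at hg
  have h1 : g * x i * g⁻¹ ∈ Subgroup.zpowers (x j) := by
    rw [← hg]
    exact Subgroup.mem_zpowers _
  obtain ⟨k, hk⟩ := Subgroup.mem_zpowers_iff.1 h1
  have h3 := x_cube hj
  have hne : g * x i * g⁻¹ ≠ 1 := by
    intro h
    apply x_ne hi
    have : x i = g⁻¹ * (g * x i * g⁻¹) * g := by group
    rw [this, h]
    group
  -- reduce the exponent
  have hmod : x j ^ k = x j ^ (k % 3) := by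
    conv_lhs => rw [← Int.emod_add_mul_ediv k 3, zpow_add, zpow_mul]
    have : x j ^ (3 : ℤ) = 1 := by
      rw [zpow_ofNat]; exact h3
    rw [this, one_zpow, mul_one]
  have hcases : k % 3 = 0 ∨ k % 3 = 1 ∨ k % 3 = 2 := by omega
  have key : ∀ {N : Nat} (φ : Γ →* Equiv.Perm (Fin N)),
      (φ (x i)).support.card = (φ (x j)).support.card := by
    intro N φ
    rw [← support_conj φ g (x i), ← hk, hmod]
    rcases hcases with h0 | h0 | h0
    · exfalso
      apply hne
      rw [← hk, hmod, h0, zpow_zero]
    · rw [h0, zpow_one]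
    · rw [h0]
      have : x j ^ (2 : ℤ) = x j ^ 2 := zpow_ofNat _ _
      rw [this, support_sq φ h3]
  have hA := key φA
  have hB := key φB
  rw [moved_A hi, moved_A hj] at hA
  rw [moved_B hi, moved_B hj] at hB
  exact sep i hi j hj hA hB

/-- The cardinality of the presented group. -/
theorem card_Γ : Nat.card Γ = 4585351680 := Cfsg.Agent.Lib.TC.D.Fi22H.Main.simple_card.2

/-- Every subgroup of order three is conjugate to one of the seven. -/
theorem exists_conj (X : Subgroup Γ) (hX : Nat.card X = 3) :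
    ∃ i, i < 7 ∧ ∃ g : Γ, X.map (MulAut.conj g).toMonoidHom = Subgroup.zpowers (x i) := by
  classical
  haveI : Fact (Nat.Prime 3) := ⟨Nat.prime_three⟩
  have hfin : Finite Γ := Nat.finite_of_card_ne_zero (by rw [card_Γ]; norm_num)
  -- a generator
  haveI : IsCyclic X := isCyclic_of_prime_card hX
  obtain ⟨y0, hy0⟩ := IsCyclic.exists_generator (α := X)
  set y : Γ := y0.1 with hy
  have hXy : X = Subgroup.zpowers y := by
    apply le_antisymm
    · intro a ha
      obtain ⟨k, hk⟩ := Subgroup.mem_zpowers_iff.1 (hy0 ⟨a, ha⟩)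
      refine Subgroup.mem_zpowers_iff.2 ⟨k, ?_⟩
      have := congrArg (fun z : X => z.1) hk
      simpa using this
    · rw [Subgroup.zpowers_le]
      exact y0.2
  have hy3 : y ^ 3 = 1 := by
    have h1 : y0 ^ Nat.card X = 1 := pow_card_eq_one'
    rw [hX] at h1
    have := congrArg (fun z : X => z.1) h1
    simpa using this
  have hy1 : y ≠ 1 := by
    intro h1
    have h2 : X = ⊥ := by rw [hXy, h1, Subgroup.zpowers_one_eq_bot]
    rw [h2] at hX
    simp at hX
  -- Sylow
  obtain ⟨hcard, hcl⟩ := data
  have hfact : (Nat.card Γ).factorization 3 = 9 := by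
    rw [card_Γ, show (4585351680 : Nat) = 3 ^ 9 * 232960 by norm_num,
      Nat.factorization_mul (by norm_num) (by norm_num), Nat.Prime.factorization_pow Nat.prime_three]
    have h0 : (232960 : Nat).factorization 3 = 0 :=
      Nat.factorization_eq_zero_of_not_dvd (by norm_num)
    simp [h0]
  let R : Sylow 3 Γ := Sylow.ofCard (Tk s 9) (by rw [hfact]; exact hcard)
  have hRc : (R : Subgroup Γ) = Tk s 9 := rfl
  have hXp : IsPGroup 3 X := IsPGroup.of_card (n := 1) (by rw [hX]; norm_num)
  obtain ⟨Q, hQ⟩ := hXp.exists_le_sylow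
  obtain ⟨g, hg⟩ := MulAction.exists_smul_eq Γ Q R
  have hyQ : y ∈ (Q : Subgroup Γ) := hQ y0.2
  have h1 : g * y * g⁻¹ ∈ Tk s 9 := by
    rw [← hRc, ← hg, Sylow.coe_subgroup_smul]
    have := Subgroup.smul_mem_pointwise_smul y (MulAut.conj g) (Q : Subgroup Γ) hyQ
    simpa [MulAut.smul_def, MulAut.conj_apply] using this
  have h2 : (g * y * g⁻¹) ^ 3 = 1 := by
    rw [conj_pow, hy3]; group
  have h3 : g * y * g⁻¹ ≠ 1 := by
    intro h
    apply hy1
    have : y = g⁻¹ * (g * y * g⁻¹) * g := by group
    rw [this, h]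
    group
  obtain ⟨g', r, hr, hg'⟩ := hcl _ h1 h2 h3
  have hnr : nr = 126 := by decide
  have hic : ic r < 7 := by
    have h := List.all_eq_true.1 chkIc (ic r) (by
      have : r < icL.length := by
        have : icL.length = 126 := by decide
        omega
      rw [ic, List.getD_eq_getElem _ _ this]
      exact List.getElem_mem this)
    rwa [Nat.blt_eq] at h
  have hia : ia r = 1 ∨ ia r = 2 := by
    have h := List.all_eq_true.1 chkIa (ia r) (by
      have : r < iaL.length := by
        have : iaL.length = 126 := by decide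
        omega
      rw [ia, List.getD_eq_getElem _ _ this]
      exact List.getElem_mem this)
    simpa only [Bool.or_eq_true, Nat.beq_eq] using h
  refine ⟨ic r, hic, g' * g, ?_⟩
  rw [hXy, map_conj_zpowers]
  have h4 : g' * g * y * (g' * g)⁻¹ = x (ic r) ^ ia r := by
    rw [← hg']; group
  rw [h4]
  rcases hia with h5 | h5
  · rw [h5, pow_one]
  · rw [h5]
    apply le_antisymm
    · rw [Subgroup.zpowers_le]
      exact Subgroup.pow_mem _ (Subgroup.mem_zpowers _) _
    · rw [Subgroup.zpowers_le]
      have h6 : x (ic r) = (x (ic r) ^ 2) ^ 2 := by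
        rw [← pow_mul, show 2 * 2 = 3 + 1 by norm_num, pow_add, x_cube hic]
        simp
      rw [h6]
      exact Subgroup.pow_mem _ (by
        rw [← h6]
        exact Subgroup.mem_zpowers _) _

end Cfsg.Agent.Lib.O73.Main
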