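import Cfsg.Agent.Lib.Schur.Local
import Cfsg.Agent.Lib.Schur.Cert.O73p2
import Cfsg.Agent.Lib.Schur.Cert.O73p3
import Cfsg.Agent.Lib.O73.Act

/-! The bound for the Schur multiplier of `Ω₇(3)`. -/

set_option autoImplicit false
set_option maxRecDepth 100000

namespace Cfsg.Agent.Lib.O73.SchurB

open Cfsg Cfsg.Agent.Lib.Schur.Stem Cfsg.Agent.Lib.Schur.Local Cfsg.Agent.Lib.Schur
  Cfsg.Agent.Lib.Schur.Cert Cfsg.Agent.Lib.PermComp Cfsg.Agent.Lib.O73.Act

theorem not_sq_dvd {p : ℕ} (hp : p.Prime) (h2 : p ≠ 2) (h3 : p ≠ 3) : ¬ p ^ 2 ∣ 4585351680 := by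
  intro h
  have hc1 : Nat.Coprime (p ^ 2) (2 ^ 9 * 3 ^ 9) := by
    apply Nat.Coprime.pow_left
    apply Nat.Coprime.mul_right
    · exact Nat.Coprime.pow_right _ ((Nat.coprime_primes hp Nat.prime_two).2 h2)
    · exact Nat.Coprime.pow_right _ ((Nat.coprime_primes hp Nat.prime_three).2 h3)
  have h4 : p ^ 2 ∣ 455 := by
    have : 4585351680 = (2 ^ 9 * 3 ^ 9) * 455 := by norm_num
    rw [this] at h
    exact hc1.dvd_of_dvd_mul_left h
  have h5 : p ∣ 455 := (dvd_pow_self p two_ne_zero).trans h4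
  have h6 : (455 : ℕ) = 5 * 7 * 13 := by norm_num
  have h7 : p = 5 ∨ p = 7 ∨ p = 13 := by
    rw [h6] at h5
    rcases (Nat.Prime.dvd_mul hp).1 h5 with h5 | h5
    · rcases (Nat.Prime.dvd_mul hp).1 h5 with h5 | h5
      · exact Or.inl ((Nat.prime_dvd_prime_iff_eq hp (by norm_num)).1 h5)
      · exact Or.inr (Or.inl ((Nat.prime_dvd_prime_iff_eq hp (by norm_num)).1 h5))
    · exact Or.inr (Or.inr ((Nat.prime_dvd_prime_iff_eq hp (by norm_num)).1 h5))
  rcases h7 with rfl | rfl | rfl <;> omega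

/-- The bound. -/
theorem bound {Γ : Type*} [Group Γ] [Finite Γ] {σ : Γ →* Cfsg.Agent.Lib.O73.Hom.Γ} (hσ : IsStemExtension σ) :
    Nat.card σ.ker ∣ 6 := by
  have hk : (eG.toMonoidHom.comp σ).ker = σ.ker := by
    ext x
    simp [MonoidHom.mem_ker]
  have hσ' : IsStemExtension (eG.toMonoidHom.comp σ) := by
    refine ⟨eG.surjective.comp hσ.1, ?_, ?_⟩
    · rw [hk]
      exact hσ.2.1
    · rw [hk]
      exact hσ.2.2
  rw [← hk]
  have hmem2 := O73p2.hmem G gens_rep O73Base.idc_ok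
  have hmem3 := O73p3.hmem G gens_rep O73Base.idc_ok
  refine card_ker_dvd_of_sylow hσ' 6 (by norm_num) ?_
  intro p _ P
  by_cases hp2 : p = 2
  · subst hp2
    refine (PcPerm.card_ker_dvd (e := Equiv.refl (Fin 364)) (p := 2) G O73p2.C O73p2.check_ok O73p2.codes O73p2.conj
      O73p2.base O73p2.ord O73p2.chk_ok hmem2.1 hmem2.2 rfl hσ' (m := 8955765) (by rw [card_G]; decide +kernel)
      (by norm_num) P).trans (by decide +kernel)
  by_cases hp3 : p = 3
  · subst hp3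
    refine (PcPerm.card_ker_dvd (e := Equiv.refl (Fin 364)) (p := 3) G O73p3.C O73p3.check_ok O73p3.codes O73p3.conj
      O73p3.base O73p3.ord O73p3.chk_ok hmem3.1 hmem3.2 rfl hσ' (m := 232960) (by rw [card_G]; decide +kernel)
      (by norm_num) P).trans (by decide +kernel)
  · refine (card_ker_sylow_of_not_sq_dvd hσ' ?_ P).trans (one_dvd _)
    rw [card_G]
    exact not_sq_dvd Fact.out hp2 hp3

end Cfsg.Agent.Lib.O73.SchurB
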